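import Cfsg.Agent.H116.RatB0.StB0

/-!
# Counting `q`-regular elements (helper949)

* `reg_comap` : surjective homomorphisms with kernel of order prime to `q`;
* `card_eq_of_central` : `|C| = |S| * reg q C` for a central Sylow subgroup `S` of `C`;
* `reg_eps` : `reg q P ≡ eps * reg q H` for `H` containing a Sylow subgroup of `P`, `N` normal with
  `reg q (N ∩ H) ≡ reg q N`; `eps_dvd`, `eps_dvd_eps`.
-/

set_option autoImplicit false

namespace Cfsg.Agent.H949.PB

open Subgroup Cfsg.Agent.H116.RatB0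

universe u v

section Comap

variable {X : Type u} {Y : Type v} [Group X] [Group Y] [Finite X] [Finite Y] {q : ℕ} [hq : Fact q.Prime]

/-- the order of an element over a `q`-regular element -/
theorem dvd_orderOf_iff (f : X →* Y) (hk : ¬ q ∣ Nat.card f.ker) (x : X) : q ∣ orderOf x ↔ q ∣ orderOf (f x) := by
  constructor
  · intro h
    have h1 : x ^ orderOf (f x) ∈ f.ker := by
      rw [MonoidHom.mem_ker, map_pow, pow_orderOf_eq_one]
    have h2 : x ^ (orderOf (f x) * Nat.card f.ker) = 1 := by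
      rw [pow_mul]
      have h3 : (⟨_, h1⟩ : f.ker) ^ Nat.card f.ker = 1 := pow_card_eq_one'
      exact congrArg Subtype.val h3
    have h3 := h.trans (orderOf_dvd_of_pow_eq_one h2)
    exact (hq.out.dvd_mul.1 h3).resolve_right hk
  · intro h
    exact h.trans (orderOf_map_dvd f x)

/-- **The number of `q`-regular elements of the preimage.** -/
theorem reg_comap (f : X →* Y) (hf : Function.Surjective f) (hk : ¬ q ∣ Nat.card f.ker) (K : Subgroup Y) :
    reg q (K.comap f) = Nat.card f.ker * reg q K := by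
  classical
  have e : {x : X // x ∈ K.comap f ∧ ¬ q ∣ orderOf x} ≃ (Σ y : {y : Y // y ∈ K ∧ ¬ q ∣ orderOf y}, f ⁻¹' {y.1}) :=
    { toFun := fun x => ⟨⟨f x.1, x.2.1, fun h => x.2.2 ((dvd_orderOf_iff f hk _).2 h)⟩, ⟨x.1, rfl⟩⟩
      invFun := fun z => ⟨z.2.1, by
        obtain ⟨⟨y, hy⟩, x, hx⟩ := z
        have hx' : f x = y := hx
        subst hx'
        exact ⟨hy.1, fun h => hy.2 ((dvd_orderOf_iff f hk _).1 h)⟩⟩
      left_inv := fun x => rfl
      right_inv := fun z => by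
        obtain ⟨⟨y, hy⟩, x, hx⟩ := z
        have hx' : f x = y := hx
        subst hx'
        rfl }
  unfold reg
  have e' : (Σ y : {y : Y // y ∈ K ∧ ¬ q ∣ orderOf y}, f ⁻¹' {y.1}) ≃ {y : Y // y ∈ K ∧ ¬ q ∣ orderOf y} × f.ker :=
    (Equiv.sigmaCongrRight fun (y : {y : Y // y ∈ K ∧ ¬ q ∣ orderOf y}) =>
      f.fiberEquivKerOfSurjective hf y.1).trans (Equiv.sigmaEquivProd _ _)
  rw [Nat.card_congr (e.trans e'), Nat.card_prod, mul_comm]

end Comap

section Central

variable {G : Type u} [Group G] [Finite G] {q : ℕ} [hq : Fact q.Prime]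

/-- **Central Sylow subgroups.** -/
theorem card_eq_of_central {S C : Subgroup G} (hS : IsPGroup q S) (hSC : S ≤ C) (hcen : ∀ s ∈ S, ∀ c ∈ C, s * c = c * s)
    (hmax : ∀ c ∈ C, (∃ k : ℕ, c ^ q ^ k = 1) → c ∈ S) : Nat.card C = Nat.card S * reg q C := by
  classical
  obtain ⟨k, hk⟩ := IsPGroup.iff_card.1 hS
  have hSk : ∀ s ∈ S, s ^ q ^ k = 1 := by
    intro s hs
    have h1 : (⟨s, hs⟩ : S) ^ Nat.card S = 1 := pow_card_eq_one'
    rw [hk] at h1
    exact congrArg Subtype.val h1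
  have hpow : ∀ s ∈ S, ∀ x ∈ C, (s * x) ^ q ^ k = x ^ q ^ k := by
    intro s hs x hx
    have h1 : Commute s x := hcen s hs x hx
    rw [h1.mul_pow, hSk s hs, one_mul]
  let f : S × {x : G // x ∈ C ∧ ¬ q ∣ orderOf x} → C := fun z => ⟨z.1.1 * z.2.1, mul_mem (hSC z.1.2) z.2.2.1⟩
  have hf : Function.Bijective f := by
    constructor
    · rintro ⟨⟨s, hs⟩, ⟨x, hx, hxo⟩⟩ ⟨⟨s', hs'⟩, ⟨x', hx', hxo'⟩⟩ e
      have e1 : s * x = s' * x' := congrArg Subtype.val e
      have e2 : x ^ q ^ k = x' ^ q ^ k := by rw [← hpow s hs x hx, e1, hpow s' hs' x' hx']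
      have hc : (q ^ k).Coprime (orderOf x * orderOf x') :=
        Nat.Coprime.pow_left k ((Nat.Prime.coprime_iff_not_dvd hq.out).2 fun h =>
          (hq.out.dvd_mul.1 h).elim hxo hxo')
      have hbez := Nat.gcd_eq_gcd_ab (q ^ k) (orderOf x * orderOf x')
      rw [hc.gcd_eq_one] at hbez
      have e3 : ∀ y : G, y ^ (orderOf x * orderOf x') = 1 → y = (y ^ q ^ k) ^ (q ^ k).gcdA (orderOf x * orderOf x') := by
        intro y hy
        have h1 : y = y ^ (1 : ℤ) := (zpow_one y).symm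
        have h2 : y ^ (((q ^ k : ℕ) : ℤ) * (q ^ k).gcdA (orderOf x * orderOf x') +
            ((orderOf x * orderOf x' : ℕ) : ℤ) * (q ^ k).gcdB (orderOf x * orderOf x')) = y := by
          rw [← hbez]
          simp
        rw [zpow_add, zpow_mul, zpow_mul, zpow_natCast, zpow_natCast, hy, one_zpow, mul_one] at h2
        exact h2.symm
      have e4 : x = x' := by
        rw [e3 x (by rw [pow_mul, pow_orderOf_eq_one, one_pow]), e2,
          ← e3 x' (by rw [mul_comm, pow_mul, pow_orderOf_eq_one, one_pow])]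
      subst e4
      have e5 : s = s' := mul_right_cancel e1
      subst e5
      rfl
    · rintro ⟨c, hc⟩
      obtain ⟨a, b, hb, hab⟩ := Nat.exists_eq_pow_mul_and_not_dvd (orderOf_pos c).ne' q hq.out.ne_one
      -- `c = c_q * c_{q'}`
      have hcop : (q ^ a).Coprime b := Nat.Coprime.pow_left a ((Nat.Prime.coprime_iff_not_dvd hq.out).2 hb)
      have hbez := Nat.gcd_eq_gcd_ab (q ^ a) b
      rw [hcop.gcd_eq_one] at hbez
      have hca : c ^ ((b : ℤ) * (q ^ a).gcdB b) ∈ S := by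
        refine hmax _ (zpow_mem hc _) ⟨a, ?_⟩
        rw [← zpow_natCast, ← zpow_mul]
        have h1 : (b : ℤ) * (q ^ a).gcdB b * ((q ^ a : ℕ) : ℤ) = ((orderOf c : ℕ) : ℤ) * (q ^ a).gcdB b := by
          rw [hab]
          push_cast
          ring
        rw [h1, zpow_mul, zpow_natCast, pow_orderOf_eq_one, one_zpow]
      have hcb : ¬ q ∣ orderOf (c ^ (((q ^ a : ℕ) : ℤ) * (q ^ a).gcdA b)) := by
        intro h
        apply hb
        refine h.trans (orderOf_dvd_of_pow_eq_one ?_)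
        rw [← zpow_natCast, ← zpow_mul]
        have h1 : ((q ^ a : ℕ) : ℤ) * (q ^ a).gcdA b * (b : ℤ) = ((orderOf c : ℕ) : ℤ) * (q ^ a).gcdA b := by
          rw [hab]
          push_cast
          ring
        rw [h1, zpow_mul, zpow_natCast, pow_orderOf_eq_one, one_zpow]
      refine ⟨⟨⟨_, hca⟩, ⟨_, zpow_mem hc _, hcb⟩⟩, Subtype.ext ?_⟩
      show c ^ ((b : ℤ) * (q ^ a).gcdB b) * c ^ (((q ^ a : ℕ) : ℤ) * (q ^ a).gcdA b) = c
      rw [← zpow_add]
      have h1 : (b : ℤ) * (q ^ a).gcdB b + ((q ^ a : ℕ) : ℤ) * (q ^ a).gcdA b = 1 := by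
        rw [add_comm, ← hbez]
        simp
      rw [h1, zpow_one]
  rw [← Nat.card_congr (Equiv.ofBijective f hf), Nat.card_prod]
  rfl

end Central

theorem card_mul_relIndex {G : Type u} [Group G] {A B : Subgroup G} (h : A ≤ B) :
    Nat.card A * A.relIndex B = Nat.card B := by
  have h1 := Subgroup.relIndex_mul_relIndex (⊥ : Subgroup G) A B bot_le h
  rwa [Subgroup.relIndex_bot_left, Subgroup.relIndex_bot_left] at h1

section Eps

variable {P : Type u} [Group P] [Finite P] {q : ℕ} [hq : Fact q.Prime]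

/-- the index -/
noncomputable def eps (N Q H : Subgroup P) : ℕ :=
  ((centralizer (Q : Set P) ⊓ N) ⊔ (centralizer (Q : Set P) ⊓ H)).relIndex (centralizer (Q : Set P))

theorem eps_dvd_eps {N Q H H' : Subgroup P} (h : H ≤ H') : eps N Q H' ∣ eps N Q H :=
  Subgroup.relIndex_dvd_of_le_left _ (sup_le_sup_left (inf_le_inf_left _ h) _)

theorem eps_dvd {N Q H Z : Subgroup P} [hN : N.Normal] (hNZ : (N ⊔ Z).Normal) (hZH : Z ≤ H)
    (hZQ : Z ≤ centralizer (Q : Set P)) : eps N Q H ∣ (N ⊔ Z).index := by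
  have h1 : centralizer (Q : Set P) ⊓ (N ⊔ Z) ≤
      (centralizer (Q : Set P) ⊓ N) ⊔ (centralizer (Q : Set P) ⊓ H) := by
    rintro c ⟨hc, hc'⟩
    obtain ⟨n, hn, z, hz, rfl⟩ := Subgroup.mem_sup_of_normal_left.1 hc'
    have hzC := hZQ hz
    have hnC : n ∈ centralizer (Q : Set P) := by
      have h2 : n * z * z⁻¹ ∈ centralizer (Q : Set P) := Subgroup.mul_mem _ hc (Subgroup.inv_mem _ hzC)
      rwa [mul_inv_cancel_right] at h2
    exact mul_mem (Subgroup.mem_sup_left ⟨hnC, hn⟩) (Subgroup.mem_sup_right ⟨hzC, hZH hz⟩)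
  have h2 : eps N Q H ∣ (centralizer (Q : Set P) ⊓ (N ⊔ Z)).relIndex (centralizer (Q : Set P)) :=
    Subgroup.relIndex_dvd_of_le_left _ h1
  rw [Subgroup.inf_relIndex_left] at h2
  exact h2.trans (Subgroup.relIndex_dvd_index_of_normal _ _)

/-- the number of `q`-regular elements of the centralizer -/
theorem reg_modEq_inf {H Q : Subgroup P} (hQ : IsPGroup q Q) (hQH : Q ≤ H) :
    reg q H ≡ reg q (centralizer (Q : Set P) ⊓ H) [MOD q] := by
  refine (reg_modEq hQ hQH).trans ?_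
  have h : Nat.card {x : P // (x ∈ H ∧ x ∈ centralizer (Q : Set P)) ∧ ¬ q ∣ orderOf x} =
      reg q (centralizer (Q : Set P) ⊓ H) :=
    Nat.card_congr (Equiv.subtypeEquivRight fun x => ⟨fun hx => ⟨⟨hx.1.2, hx.1.1⟩, hx.2⟩,
      fun hx => ⟨⟨hx.1.2, hx.1.1⟩, hx.2⟩⟩)
  rw [h]

theorem not_dvd_reg (H : Subgroup P) : ¬ q ∣ reg q H := by
  have h1 : reg q H = reg q (⊤ : Subgroup H) := by
    refine Nat.card_congr
      { toFun := fun x => ⟨⟨x.1, x.2.1⟩, Subgroup.mem_top _, by rw [Subgroup.orderOf_mk]; exact x.2.2⟩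
        invFun := fun x => ⟨x.1.1, x.1.2, by rw [Subgroup.orderOf_coe]; exact x.2.2⟩
        left_inv := fun x => rfl
        right_inv := fun x => rfl }
  rw [h1, reg_top]
  exact Cfsg.Agent.Blocks.RegularCount.not_dvd_card_regular

/-- **The comparison.** -/
theorem reg_eps {N H : Subgroup P} [hN : N.Normal] (Q : Sylow q P) (hQN : (Q : Subgroup P) ≤ N)
    (hQH : (Q : Subgroup P) ≤ H) (hreg : reg q (N ⊓ H) ≡ reg q N [MOD q]) :
    reg q (⊤ : Subgroup P) ≡ eps N (Q : Subgroup P) H * reg q H [MOD q] := by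
  set C := centralizer ((Q : Subgroup P) : Set P) with hC
  set S : Subgroup P := (Q : Subgroup P) ⊓ C with hS
  have hQp : IsPGroup q (Q : Subgroup P) := Q.isPGroup'
  have hSp : IsPGroup q S := hQp.to_le inf_le_left
  have hSC : S ≤ C := inf_le_right
  have hcen : ∀ s ∈ S, ∀ c ∈ C, s * c = c * s := by
    intro s hs c hc
    exact (Subgroup.mem_centralizer_iff.1 hc) s hs.1
  have hmax : ∀ c ∈ C, (∃ k : ℕ, c ^ q ^ k = 1) → c ∈ S := by
    intro c hc hk
    refine ⟨?_, hc⟩
    have h1 : IsPGroup q (zpowers c) := by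
      rintro ⟨x, hx⟩
      obtain ⟨k, hk⟩ := hk
      obtain ⟨m, hm⟩ := Subgroup.mem_zpowers_iff.1 hx
      refine ⟨k, Subtype.ext ?_⟩
      show x ^ q ^ k = 1
      rw [← hm, ← zpow_natCast, ← zpow_mul, mul_comm, zpow_mul, zpow_natCast, hk, one_zpow]
    have h2 : zpowers c ≤ Subgroup.normalizer ((Q : Subgroup P) : Set P) := by
      rw [Subgroup.zpowers_le]
      exact Subgroup.centralizer_le_normalizer _ hc
    have h3 : IsPGroup q ((Q : Subgroup P) ⊔ zpowers c : Subgroup P) := by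
      exact IsPGroup.to_sup_of_normal_left' hQp h1 h2
    have h4 := Q.3 h3 le_sup_left
    rw [← h4]
    exact Subgroup.mem_sup_right (Subgroup.mem_zpowers c)
  have card_eq : ∀ D : Subgroup P, S ≤ D → Nat.card (C ⊓ D : Subgroup P) = Nat.card S * reg q (C ⊓ D) := fun D hD =>
    card_eq_of_central hSp (le_inf hSC hD) (fun s hs c hc => hcen s hs c hc.1) (fun c hc hk => hmax c hc.1 hk)
  have hSN : S ≤ N := inf_le_left.trans hQN
  have hSH : S ≤ H := inf_le_left.trans hQH
  have c1 := card_eq ⊤ le_top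
  have c2 := card_eq N hSN
  have c3 := card_eq H hSH
  have c4 := card_eq (N ⊓ H) (le_inf hSN hSH)
  rw [inf_top_eq] at c1
  -- indices in `C`
  have hNC : (N.subgroupOf C).Normal := inferInstance
  have i1 : Nat.card C * Nat.card (C ⊓ (N ⊓ H) : Subgroup P) =
      eps N (Q : Subgroup P) H * (Nat.card (C ⊓ N : Subgroup P) * Nat.card (C ⊓ H : Subgroup P)) := by
    -- work in the group `C`
    have e1 : ∀ D : Subgroup P, Nat.card (C ⊓ D : Subgroup P) = Nat.card (D.subgroupOf C) := by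
      intro D
      rw [inf_comm, ← Subgroup.inf_subgroupOf_right, ]
      exact (Nat.card_congr (Subgroup.subgroupOfEquivOfLe inf_le_right).toEquiv).symm
    have e2 : ((C ⊓ N) ⊔ (C ⊓ H)).subgroupOf C = N.subgroupOf C ⊔ H.subgroupOf C := by
      rw [Subgroup.subgroupOf_sup inf_le_left inf_le_left]
      congr 1
      · rw [inf_comm, Subgroup.inf_subgroupOf_right]
      · rw [inf_comm, Subgroup.inf_subgroupOf_right]
    have e3 : eps N (Q : Subgroup P) H = (N.subgroupOf C ⊔ H.subgroupOf C).index := by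
      unfold eps
      rw [← hC, ← e2]
      rfl
    have e4 : (N ⊓ H).subgroupOf C = N.subgroupOf C ⊓ H.subgroupOf C := rfl
    rw [e1, e1, e1, e3, e4]
    set A := N.subgroupOf C
    set B := H.subgroupOf C
    have f1 := Subgroup.card_mul_index (A ⊔ B)
    -- `|A ⊔ B| |A ⊓ B| = |A| |B|`
    have f2 : Nat.card (A ⊔ B : Subgroup C) * Nat.card (A ⊓ B : Subgroup C) = Nat.card A * Nat.card B := by
      have g1 : A.relIndex (A ⊔ B) = A.relIndex B := by
        rw [sup_comm]; exact Subgroup.relIndex_sup_right _ _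
      have g2 : A.relIndex (A ⊔ B) * Nat.card A = Nat.card (A ⊔ B : Subgroup C) := by
        rw [mul_comm]
        exact card_mul_relIndex le_sup_left
      have g3 : A.relIndex B * Nat.card (A ⊓ B : Subgroup C) = Nat.card B := by
        rw [mul_comm, ← Subgroup.inf_relIndex_right]
        exact card_mul_relIndex inf_le_right
      rw [← g2, ← g3, g1]
      ring
    rw [← f1, ← f2]
    ring
  rw [c1, c2, c3, c4] at i1
  have hS0 : 0 < Nat.card S := Nat.card_pos
  have i2 : reg q C * reg q (C ⊓ (N ⊓ H)) = eps N (Q : Subgroup P) H * (reg q (C ⊓ N) * reg q (C ⊓ H)) := by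
    have h1 : Nat.card S * Nat.card S * (reg q C * reg q (C ⊓ (N ⊓ H))) =
        Nat.card S * Nat.card S * (eps N (Q : Subgroup P) H * (reg q (C ⊓ N) * reg q (C ⊓ H))) := by
      calc Nat.card S * Nat.card S * (reg q C * reg q (C ⊓ (N ⊓ H))) =
          Nat.card S * reg q C * (Nat.card S * reg q (C ⊓ (N ⊓ H))) := by ring
        _ = _ := i1
        _ = _ := by ring
    exact Nat.eq_of_mul_eq_mul_left (Nat.mul_pos hS0 hS0) h1
  have m1 : reg q (⊤ : Subgroup P) ≡ reg q C [MOD q] := by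
    have := reg_modEq_inf (q := q) (H := (⊤ : Subgroup P)) hQp le_top
    rwa [inf_top_eq] at this
  have m2 := reg_modEq_inf (q := q) (H := N) hQp hQN
  have m3 := reg_modEq_inf (q := q) (H := H) hQp hQH
  have m4 := reg_modEq_inf (q := q) (H := N ⊓ H) hQp (le_inf hQN hQH)
  rw [← hC] at m2 m3 m4
  have m5 : reg q C * reg q (C ⊓ N) ≡ eps N (Q : Subgroup P) H * reg q (C ⊓ H) * reg q (C ⊓ N) [MOD q] := by
    have h1 : reg q (C ⊓ N) ≡ reg q (C ⊓ (N ⊓ H)) [MOD q] := (m2.symm.trans hreg.symm).trans m4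
    refine (h1.mul_left (reg q C)).trans ?_
    rw [i2]
    have h2 : eps N (Q : Subgroup P) H * (reg q (C ⊓ N) * reg q (C ⊓ H)) =
      eps N (Q : Subgroup P) H * reg q (C ⊓ H) * reg q (C ⊓ N) := by ring
    rw [h2]
  have m6 : reg q C ≡ eps N (Q : Subgroup P) H * reg q (C ⊓ H) [MOD q] := by
    refine Nat.ModEq.cancel_right_of_coprime ?_ m5
    exact (Nat.Prime.coprime_iff_not_dvd hq.out).2 (not_dvd_reg _)
  exact m1.trans (m6.trans (m3.symm.mul_left _))

end Eps

end Cfsg.Agent.H949.PB
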